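import Mathlib
import Cfsg.Agent.LieClassical.SLTwoUnipotent
import Cfsg.Agent.TwoFusion.SLTwoFacts
import Cfsg.Agent.S0242
import Cfsg.Agent.H176.NFBase

/-!
# Solvable subgroups of `SL_3(p)` containing a Sylow `p`-subgroup (helper176, S5773)

Two transvections `1 + u₁ ⊗ φ₁`, `1 + u₂ ⊗ φ₂` over the prime field with `φ₁(u₂) φ₂(u₁) ≠ 0` generate `SL_2(p)`.
-/

set_option autoImplicit false

namespace Cfsg.Agent.H176.NFFlag

open Matrix

universe u

section Transv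

variable {F : Type u} [Field F] {n : ℕ}

/-- The matrix with columns `u₁`, `u₂`. -/
def colM (u₁ u₂ : Fin n → F) : Matrix (Fin n) (Fin 2) F := Matrix.of fun i j => ![u₁ i, u₂ i] j

/-- The matrix with rows `φ₂ / φ₂(u₁)`, `φ₁ / φ₁(u₂)`. -/
def rowM (u₁ u₂ φ₁ φ₂ : Fin n → F) : Matrix (Fin 2) (Fin n) F :=
  Matrix.of fun j i => ![(φ₂ ⬝ᵥ u₁)⁻¹ * φ₂ i, (φ₁ ⬝ᵥ u₂)⁻¹ * φ₁ i] j

theorem rowM_mul_colM {u₁ u₂ φ₁ φ₂ : Fin n → F} (h1 : φ₁ ⬝ᵥ u₁ = 0) (h2 : φ₂ ⬝ᵥ u₂ = 0) (ha : φ₁ ⬝ᵥ u₂ ≠ 0)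
    (hb : φ₂ ⬝ᵥ u₁ ≠ 0) : rowM u₁ u₂ φ₁ φ₂ * colM u₁ u₂ = 1 := by
  have key : ∀ (c : F) (φ v : Fin n → F), ∑ i, c * φ i * v i = c * (φ ⬝ᵥ v) := fun c φ v => by
    rw [dotProduct, Finset.mul_sum]
    exact Finset.sum_congr rfl fun i _ => by ring
  ext i j
  fin_cases i <;> fin_cases j <;> simp [rowM, colM, Matrix.mul_apply, key, h1, h2, ha, hb]

/-- The embedding of `SL_2(F)`. -/
def emb {u₁ u₂ φ₁ φ₂ : Fin n → F} (h : rowM u₁ u₂ φ₁ φ₂ * colM u₁ u₂ = 1) :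
    Matrix.SpecialLinearGroup (Fin 2) F →* Matrix.SpecialLinearGroup (Fin n) F where
  toFun A := ⟨1 + colM u₁ u₂ * ((A : Matrix (Fin 2) (Fin 2) F) - 1) * rowM u₁ u₂ φ₁ φ₂, by
    rw [Matrix.mul_assoc, Matrix.det_one_add_mul_comm, Matrix.mul_assoc, h, Matrix.mul_one, add_sub_cancel]
    exact A.2⟩
  map_one' := by
    apply Subtype.ext
    simp
  map_mul' A B := by
    apply Subtype.ext
    change 1 + colM u₁ u₂ * (((A * B : Matrix.SpecialLinearGroup (Fin 2) F) : Matrix (Fin 2) (Fin 2) F) - 1) *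
      rowM u₁ u₂ φ₁ φ₂ = (1 + colM u₁ u₂ * ((A : Matrix (Fin 2) (Fin 2) F) - 1) * rowM u₁ u₂ φ₁ φ₂) *
      (1 + colM u₁ u₂ * ((B : Matrix (Fin 2) (Fin 2) F) - 1) * rowM u₁ u₂ φ₁ φ₂)
    rw [Matrix.SpecialLinearGroup.coe_mul]
    set U := colM u₁ u₂
    set Θ := rowM u₁ u₂ φ₁ φ₂
    set a := (A : Matrix (Fin 2) (Fin 2) F)
    set b := (B : Matrix (Fin 2) (Fin 2) F)
    have e1 : (U * (a - 1) * Θ) * (U * (b - 1) * Θ) = U * ((a - 1) * (b - 1)) * Θ := by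
      calc (U * (a - 1) * Θ) * (U * (b - 1) * Θ) = U * (a - 1) * (Θ * U) * (b - 1) * Θ := by
            simp only [Matrix.mul_assoc]
        _ = _ := by rw [h, Matrix.mul_one]; simp only [Matrix.mul_assoc]
    have e2 : a * b - 1 = (a - 1) + (b - 1) + (a - 1) * (b - 1) := by noncomm_ring
    rw [e2, Matrix.mul_add, Matrix.mul_add, Matrix.add_mul, Matrix.add_mul, Matrix.add_mul, Matrix.mul_add,
      Matrix.mul_add, Matrix.one_mul, Matrix.mul_one, Matrix.one_mul, e1]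
    abel

theorem emb_injective {u₁ u₂ φ₁ φ₂ : Fin n → F} (h : rowM u₁ u₂ φ₁ φ₂ * colM u₁ u₂ = 1) :
    Function.Injective (emb h) := by
  rw [injective_iff_map_eq_one]
  intro A hA
  have h1 : (1 : Matrix (Fin n) (Fin n) F) + colM u₁ u₂ * ((A : Matrix (Fin 2) (Fin 2) F) - 1) * rowM u₁ u₂ φ₁ φ₂ = 1 :=
    congrArg Subtype.val hA
  have h2 : colM u₁ u₂ * ((A : Matrix (Fin 2) (Fin 2) F) - 1) * rowM u₁ u₂ φ₁ φ₂ = 0 := by
    simpa using h1
  have h3 : rowM u₁ u₂ φ₁ φ₂ * (colM u₁ u₂ * ((A : Matrix (Fin 2) (Fin 2) F) - 1) * rowM u₁ u₂ φ₁ φ₂) *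
      colM u₁ u₂ = 0 := by rw [h2]; simp
  have h4 : rowM u₁ u₂ φ₁ φ₂ * (colM u₁ u₂ * ((A : Matrix (Fin 2) (Fin 2) F) - 1) * rowM u₁ u₂ φ₁ φ₂) *
      colM u₁ u₂ = (A : Matrix (Fin 2) (Fin 2) F) - 1 := by
    calc _ = (rowM u₁ u₂ φ₁ φ₂ * colM u₁ u₂) * ((A : Matrix (Fin 2) (Fin 2) F) - 1) *
          (rowM u₁ u₂ φ₁ φ₂ * colM u₁ u₂) := by simp only [Matrix.mul_assoc]
      _ = _ := by rw [h, Matrix.one_mul, Matrix.mul_one]
  rw [h4] at h3
  apply Subtype.ext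
  exact sub_eq_zero.1 h3

/-- the matrix of a transvection -/
theorem emb_u {u₁ u₂ φ₁ φ₂ : Fin n → F} (h : rowM u₁ u₂ φ₁ φ₂ * colM u₁ u₂ = 1) (ha : φ₁ ⬝ᵥ u₂ ≠ 0) (c : F) :
    ((emb h (LieClassical.SLTwoUnipotent.u (c * (φ₁ ⬝ᵥ u₂)))) : Matrix (Fin n) (Fin n) F) =
      1 + c • Matrix.vecMulVec u₁ φ₁ := by
  change 1 + colM u₁ u₂ * ((LieClassical.SLTwoUnipotent.u (c * (φ₁ ⬝ᵥ u₂)) : Matrix (Fin 2) (Fin 2) F) - 1) *
    rowM u₁ u₂ φ₁ φ₂ = _
  congr 1
  ext i k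
  rw [LieClassical.SLTwoUnipotent.coe_u, Matrix.one_fin_two]
  simp only [Matrix.mul_apply, Fin.sum_univ_two, colM, rowM, Matrix.of_apply, Matrix.sub_apply, Matrix.smul_apply,
    Matrix.vecMulVec_apply]
  simp
  field_simp

theorem emb_l {u₁ u₂ φ₁ φ₂ : Fin n → F} (h : rowM u₁ u₂ φ₁ φ₂ * colM u₁ u₂ = 1) (hb : φ₂ ⬝ᵥ u₁ ≠ 0) (c : F) :
    ((emb h (LieClassical.SLTwoUnipotent.l (c * (φ₂ ⬝ᵥ u₁)))) : Matrix (Fin n) (Fin n) F) =
      1 + c • Matrix.vecMulVec u₂ φ₂ := by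
  change 1 + colM u₁ u₂ * ((LieClassical.SLTwoUnipotent.l (c * (φ₂ ⬝ᵥ u₁)) : Matrix (Fin 2) (Fin 2) F) - 1) *
    rowM u₁ u₂ φ₁ φ₂ = _
  congr 1
  ext i k
  rw [LieClassical.SLTwoUnipotent.coe_l, Matrix.one_fin_two]
  simp only [Matrix.mul_apply, Fin.sum_univ_two, colM, rowM, Matrix.of_apply, Matrix.sub_apply, Matrix.smul_apply,
    Matrix.vecMulVec_apply]
  simp
  field_simp

/-- Powers of a transvection. -/
theorem pow_transv {u φ : Fin n → F} (h : φ ⬝ᵥ u = 0) {t : Matrix.SpecialLinearGroup (Fin n) F}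
    (ht : (t : Matrix (Fin n) (Fin n) F) = 1 + Matrix.vecMulVec u φ) (k : ℕ) :
    ((t ^ k : Matrix.SpecialLinearGroup (Fin n) F) : Matrix (Fin n) (Fin n) F) =
      1 + (k : F) • Matrix.vecMulVec u φ := by
  induction k with
  | zero => simp
  | succ k ih =>
    rw [pow_succ, Matrix.SpecialLinearGroup.coe_mul, ih, ht]
    have e : Matrix.vecMulVec u φ * Matrix.vecMulVec u φ = 0 := by
      rw [Matrix.vecMulVec_mul_vecMulVec, h]
      simp
    rw [add_mul, one_mul, mul_add, mul_one, Matrix.smul_mul, e, smul_zero, add_zero, Nat.cast_succ, add_smul,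
      one_smul]
    abel

/-- **Two transvections over a prime field generate `SL_2`.** -/
theorem not_solvable [Fintype F] (h3 : 3 < Fintype.card F) (hpr : ∀ c : F, ∃ k : ℕ, (k : F) = c)
    (N : Subgroup (Matrix.SpecialLinearGroup (Fin n) F)) {u₁ u₂ φ₁ φ₂ : Fin n → F} (h1 : φ₁ ⬝ᵥ u₁ = 0)
    (h2 : φ₂ ⬝ᵥ u₂ = 0) (ha : φ₁ ⬝ᵥ u₂ ≠ 0) (hb : φ₂ ⬝ᵥ u₁ ≠ 0) {t₁ t₂ : Matrix.SpecialLinearGroup (Fin n) F}
    (ht₁ : (t₁ : Matrix (Fin n) (Fin n) F) = 1 + Matrix.vecMulVec u₁ φ₁)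
    (ht₂ : (t₂ : Matrix (Fin n) (Fin n) F) = 1 + Matrix.vecMulVec u₂ φ₂) (hN₁ : t₁ ∈ N) (hN₂ : t₂ ∈ N) :
    ¬ Group.IsSolvable N := by
  intro hs
  have h := rowM_mul_colM h1 h2 ha hb
  have htop : N.comap (emb h) = ⊤ := by
    refine LieClassical.SLTwoUnipotent.eq_top_of_u_mem_of_l_mem _ (fun x => ?_) (fun x => ?_)
    · obtain ⟨k, hk⟩ := hpr (x * (φ₁ ⬝ᵥ u₂)⁻¹)
      have e : emb h (LieClassical.SLTwoUnipotent.u x) = t₁ ^ k := by
        apply Subtype.ext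
        rw [pow_transv h1 ht₁, hk, ← emb_u h ha, mul_assoc, inv_mul_cancel₀ ha, mul_one]
      rw [Subgroup.mem_comap, e]
      exact N.pow_mem hN₁ k
    · obtain ⟨k, hk⟩ := hpr (x * (φ₂ ⬝ᵥ u₁)⁻¹)
      have e : emb h (LieClassical.SLTwoUnipotent.l x) = t₂ ^ k := by
        apply Subtype.ext
        rw [pow_transv h2 ht₂, hk, ← emb_l h hb, mul_assoc, inv_mul_cancel₀ hb, mul_one]
      rw [Subgroup.mem_comap, e]
      exact N.pow_mem hN₂ k
  have hs2 : Group.IsSolvable (Matrix.SpecialLinearGroup (Fin 2) F) := by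
    refine Group.isSolvable_of_isSolvable_injective (f := (emb h).codRestrict N fun A => ?_) ?_
    · have : A ∈ N.comap (emb h) := by rw [htop]; trivial
      exact this
    · intro A B hAB
      exact emb_injective h (congrArg Subtype.val hAB)
  have h5 := Cfsg.Agent.TwoFusion.SLTwoFacts.commutator_eq_top (F := F) h3
  have hnt : Nontrivial (Matrix.SpecialLinearGroup (Fin 2) F) := by
    refine ⟨⟨LieClassical.SLTwoUnipotent.u 1, 1, fun h6 => ?_⟩⟩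
    have h7 := congrArg (fun A : Matrix.SpecialLinearGroup (Fin 2) F => (A : Matrix (Fin 2) (Fin 2) F) 0 1) h6
    simp [LieClassical.SLTwoUnipotent.coe_u] at h7
  exact (Group.IsSolvable.commutator_lt_top_of_nontrivial (G := Matrix.SpecialLinearGroup (Fin 2) F)).ne h5

end Transv

section Three

variable {F : Type u} [Field F]

local notation "SL3" => Matrix.SpecialLinearGroup (Fin 3) F

/-- The unitriangular matrices. -/
def ut (a b c : F) : Matrix.SpecialLinearGroup (Fin 3) F :=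
  ⟨!![1, a, c; 0, 1, b; 0, 0, 1], by simp [Matrix.det_fin_three]⟩

theorem coe_ut (a b c : F) : ((ut a b c : SL3) : Matrix (Fin 3) (Fin 3) F) = !![1, a, c; 0, 1, b; 0, 0, 1] := rfl

theorem inv_apply (m : SL3) (i j : Fin 3) :
    ((m⁻¹ : SL3) : Matrix (Fin 3) (Fin 3) F) i j = (m : Matrix (Fin 3) (Fin 3) F).adjugate i j := by
  rw [Matrix.SpecialLinearGroup.coe_inv]

/-- conjugates of transvections -/
theorem conj_transv {n : ℕ} {u φ : Fin n → F} (m t : Matrix.SpecialLinearGroup (Fin n) F)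
    (ht : (t : Matrix (Fin n) (Fin n) F) = 1 + Matrix.vecMulVec u φ) :
    ((m * t * m⁻¹ : Matrix.SpecialLinearGroup (Fin n) F) : Matrix (Fin n) (Fin n) F) =
      1 + Matrix.vecMulVec ((m : Matrix (Fin n) (Fin n) F) *ᵥ u)
        (φ ᵥ* ((m⁻¹ : Matrix.SpecialLinearGroup (Fin n) F) : Matrix (Fin n) (Fin n) F)) := by
  rw [Matrix.SpecialLinearGroup.coe_mul, Matrix.SpecialLinearGroup.coe_mul, ht, mul_add, mul_one, add_mul,
    ← Matrix.SpecialLinearGroup.coe_mul, mul_inv_cancel, Matrix.SpecialLinearGroup.coe_one, Matrix.mul_vecMulVec,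
    Matrix.vecMulVec_mul]

theorem pair_zero {n : ℕ} {u φ : Fin n → F} (h : φ ⬝ᵥ u = 0) (m : Matrix.SpecialLinearGroup (Fin n) F) :
    (φ ᵥ* ((m⁻¹ : Matrix.SpecialLinearGroup (Fin n) F) : Matrix (Fin n) (Fin n) F)) ⬝ᵥ
      ((m : Matrix (Fin n) (Fin n) F) *ᵥ u) = 0 := by
  rw [← Matrix.dotProduct_mulVec, Matrix.mulVec_mulVec, ← Matrix.SpecialLinearGroup.coe_mul, inv_mul_cancel,
    Matrix.SpecialLinearGroup.coe_one, Matrix.one_mulVec, h]

variable [Fintype F]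

/-- **A solvable subgroup of `SL_3(p)`, `p ≥ 5`, containing the unitriangular matrices is upper triangular.** -/
theorem upper (h3 : 3 < Fintype.card F) (hpr : ∀ c : F, ∃ k : ℕ, (k : F) = c) (M : Subgroup SL3)
    (hM : Group.IsSolvable M) (hU : ∀ a b c : F, ut a b c ∈ M) (m : SL3) (hm : m ∈ M) :
    (m : Matrix (Fin 3) (Fin 3) F) 1 0 = 0 ∧ (m : Matrix (Fin 3) (Fin 3) F) 2 0 = 0 ∧
      (m : Matrix (Fin 3) (Fin 3) F) 2 1 = 0 := by
  -- transvections in `M`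
  have key : ∀ (u₁ φ₁ u₂ φ₂ : Fin 3 → F) (t s : SL3) (m : SL3), t ∈ M → s ∈ M → m ∈ M →
      (t : Matrix (Fin 3) (Fin 3) F) = 1 + Matrix.vecMulVec u₁ φ₁ →
      (s : Matrix (Fin 3) (Fin 3) F) = 1 + Matrix.vecMulVec u₂ φ₂ → φ₁ ⬝ᵥ u₁ = 0 → φ₂ ⬝ᵥ u₂ = 0 →
      φ₁ ⬝ᵥ ((m : Matrix (Fin 3) (Fin 3) F) *ᵥ u₂) = 0 ∨
      (φ₂ ᵥ* ((m⁻¹ : SL3) : Matrix (Fin 3) (Fin 3) F)) ⬝ᵥ u₁ = 0 := by
    intro u₁ φ₁ u₂ φ₂ t s m ht hs hm e1 e2 h1 h2
    by_contra hcon
    push Not at hcon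
    exact not_solvable h3 hpr M h1 (pair_zero h2 m) hcon.1 hcon.2 e1 (conj_transv m s e2) ht
      (M.mul_mem (M.mul_mem hm hs) (M.inv_mem hm)) hM
  have e02 : ((ut 0 0 1 : SL3) : Matrix (Fin 3) (Fin 3) F) = 1 + Matrix.vecMulVec ![1, 0, 0] ![0, 0, 1] := by
    rw [coe_ut]
    ext i j
    fin_cases i <;> fin_cases j <;> simp
  have e01 : ((ut 1 0 0 : SL3) : Matrix (Fin 3) (Fin 3) F) = 1 + Matrix.vecMulVec ![1, 0, 0] ![0, 1, 0] := by
    rw [coe_ut]
    ext i j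
    fin_cases i <;> fin_cases j <;> simp
  have e12 : ((ut 0 1 0 : SL3) : Matrix (Fin 3) (Fin 3) F) = 1 + Matrix.vecMulVec ![0, 1, 0] ![0, 0, 1] := by
    rw [coe_ut]
    ext i j
    fin_cases i <;> fin_cases j <;> simp
  have hdet : ∀ m : SL3, (m : Matrix (Fin 3) (Fin 3) F).det = 1 := fun m => m.2
  -- the corner entry
  have h20 : ∀ m ∈ M, (m : Matrix (Fin 3) (Fin 3) F) 2 0 = 0 := by
    have h : ∀ m ∈ M, ((m⁻¹ : SL3) : Matrix (Fin 3) (Fin 3) F) 2 0 = 0 := by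
      intro m hm
      have k1 := key _ _ _ _ _ _ m (hU 1 0 0) (hU 0 0 1) hm e01 e02 (by simp) (by simp)
      have k2 := key _ _ _ _ _ _ m (hU 0 0 1) (hU 0 0 1) hm e02 e02 (by simp) (by simp)
      have f1 : (![0, 0, 1] ᵥ* ((m⁻¹ : SL3) : Matrix (Fin 3) (Fin 3) F)) ⬝ᵥ ![1, 0, 0] =
          ((m⁻¹ : SL3) : Matrix (Fin 3) (Fin 3) F) 2 0 := by
        simp [Matrix.vecMul, dotProduct, Fin.sum_univ_three]
      have f2 : (![0, 1, 0] : Fin 3 → F) ⬝ᵥ ((m : Matrix (Fin 3) (Fin 3) F) *ᵥ ![1, 0, 0]) =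
          (m : Matrix (Fin 3) (Fin 3) F) 1 0 := by
        simp [Matrix.mulVec, dotProduct, Fin.sum_univ_three]
      have f3 : (![0, 0, 1] : Fin 3 → F) ⬝ᵥ ((m : Matrix (Fin 3) (Fin 3) F) *ᵥ ![1, 0, 0]) =
          (m : Matrix (Fin 3) (Fin 3) F) 2 0 := by
        simp [Matrix.mulVec, dotProduct, Fin.sum_univ_three]
      rw [f1, f2] at k1
      rw [f1, f3] at k2
      rcases k1 with k1 | k1
      · rcases k2 with k2 | k2
        · rw [inv_apply, Matrix.adjugate_fin_three]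
          simp [k1, k2]
        · exact k2
      · exact k1
    intro m hm
    have := h m⁻¹ (M.inv_mem hm)
    rwa [inv_inv] at this
  have h2110 : ∀ m ∈ M, ∀ m' ∈ M, (m : Matrix (Fin 3) (Fin 3) F) 2 1 * (m' : Matrix (Fin 3) (Fin 3) F) 1 0 = 0 := by
    intro m hm m' hm'
    have h := h20 (m * m') (M.mul_mem hm hm')
    rw [Matrix.SpecialLinearGroup.coe_mul, Matrix.mul_apply, Fin.sum_univ_three, h20 m hm, h20 m' hm'] at h
    simpa using h
  have h21 : ∀ m ∈ M, (m : Matrix (Fin 3) (Fin 3) F) 2 1 = 0 := by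
    intro m hm
    by_contra hne
    have h10 := (mul_eq_zero.1 (h2110 m hm m hm)).resolve_left hne
    have h20' := h20 m hm
    have hd := hdet m
    rw [Matrix.det_fin_three, h10, h20'] at hd
    have h00 : (m : Matrix (Fin 3) (Fin 3) F) 0 0 ≠ 0 := by
      intro h0
      rw [h0] at hd
      simp at hd
    rcases key _ _ _ _ _ _ m (hU 0 1 0) (hU 0 1 0) hm e12 e12 (by simp) (by simp) with k | k
    · apply hne
      simpa [Matrix.mulVec, dotProduct, Fin.sum_univ_three] using k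
    · have k' : ((m⁻¹ : SL3) : Matrix (Fin 3) (Fin 3) F) 2 1 = 0 := by
        simpa [Matrix.vecMul, dotProduct, Fin.sum_univ_three] using k
      rw [inv_apply, Matrix.adjugate_fin_three] at k'
      simp [h20', h00] at k'
      exact hne k'
  have h10 : ∀ m ∈ M, (m : Matrix (Fin 3) (Fin 3) F) 1 0 = 0 := by
    intro m hm
    by_contra hne
    have h20' := h20 m hm
    have h21' := h21 m hm
    have hd := hdet m
    rw [Matrix.det_fin_three, h20', h21'] at hd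
    have h22 : (m : Matrix (Fin 3) (Fin 3) F) 2 2 ≠ 0 := by
      intro h0
      rw [h0] at hd
      simp at hd
    rcases key _ _ _ _ _ _ m (hU 1 0 0) (hU 1 0 0) hm e01 e01 (by simp) (by simp) with k | k
    · apply hne
      simpa [Matrix.mulVec, dotProduct, Fin.sum_univ_three] using k
    · have k' : ((m⁻¹ : SL3) : Matrix (Fin 3) (Fin 3) F) 1 0 = 0 := by
        simpa [Matrix.vecMul, dotProduct, Fin.sum_univ_three] using k
      rw [inv_apply, Matrix.adjugate_fin_three] at k'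
      simp [h20', h22] at k'
      exact hne k'
  exact ⟨h10 m hm, h20 m hm, h21 m hm⟩

omit [Fintype F] in
theorem ut_mul (a b c a' b' c' : F) : (ut a b c : SL3) * ut a' b' c' = ut (a + a') (b + b') (c + c' + a * b') := by
  apply Subtype.ext
  rw [Matrix.SpecialLinearGroup.coe_mul, coe_ut, coe_ut, coe_ut]
  ext i j
  fin_cases i <;> fin_cases j <;> simp [Matrix.mul_apply, Fin.sum_univ_three] <;> ring

omit [Fintype F] in
theorem ut_zero : (ut 0 0 0 : SL3) = 1 := by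
  apply Subtype.ext
  rw [coe_ut, Matrix.SpecialLinearGroup.coe_one]
  ext i j
  fin_cases i <;> fin_cases j <;> simp

omit [Fintype F] in
theorem ut_inj {a b c a' b' c' : F} (h : (ut a b c : SL3) = ut a' b' c') : a = a' ∧ b = b' ∧ c = c' := by
  have h1 : ∀ i j, !![1, a, c; 0, 1, b; 0, 0, 1] i j = !![1, a', c'; 0, 1, b'; 0, 0, 1] i j := fun i j =>
    congrFun (congrFun (congrArg Subtype.val h) i) j
  exact ⟨by simpa using h1 0 1, by simpa using h1 1 2, by simpa using h1 0 2⟩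

/-- The group of unitriangular matrices. -/
def UT (F : Type u) [Field F] : Subgroup (Matrix.SpecialLinearGroup (Fin 3) F) where
  carrier := {g | ∃ a b c, g = ut a b c}
  mul_mem' := by
    rintro _ _ ⟨a, b, c, rfl⟩ ⟨a', b', c', rfl⟩
    exact ⟨_, _, _, ut_mul _ _ _ _ _ _⟩
  one_mem' := ⟨0, 0, 0, ut_zero.symm⟩
  inv_mem' := by
    rintro _ ⟨a, b, c, rfl⟩
    refine ⟨-a, -b, -c + a * b, ?_⟩
    rw [inv_eq_iff_mul_eq_one, ut_mul, ← ut_zero]
    congr 1 <;> ring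

theorem card_UT : Nat.card (UT F) = Fintype.card F ^ 3 := by
  have e : F × F × F ≃ UT F :=
    { toFun := fun x => ⟨ut x.1 x.2.1 x.2.2, _, _, _, rfl⟩
      invFun := fun g => (g.1.1 0 1, g.1.1 1 2, g.1.1 0 2)
      left_inv := fun x => by simp [coe_ut]
      right_inv := fun g => by
        obtain ⟨_, a, b, c, rfl⟩ := g
        simp [coe_ut] }
  rw [← Nat.card_congr e, Nat.card_prod, Nat.card_prod, Nat.card_eq_fintype_card]
  ring

/-- The order of `SL_3(q)`. -/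
theorem card_SL3 {q : ℕ} (hF : Fintype.card F = q) :
    Nat.card SL3 = q ^ 3 * ((q ^ 2 - 1) * (q ^ 3 - 1)) := by
  have h := Cfsg.Agent.S0242.result hF 3 (by norm_num)
  have hq : 1 < q := hF ▸ Fintype.one_lt_card
  rw [Fin.prod_univ_three] at h
  simp only [Fin.val_zero, Fin.val_one, Fin.val_two, pow_zero, pow_one] at h
  have h1 : q ^ 3 - q = q * (q ^ 2 - 1) := by rw [Nat.mul_sub, mul_one]; congr 1; ring
  have h2 : q ^ 3 - q ^ 2 = q ^ 2 * (q - 1) := by rw [Nat.mul_sub, mul_one]; congr 1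
  rw [h1, h2] at h
  refine Nat.eq_of_mul_eq_mul_left (show 0 < q - 1 by omega) ?_
  rw [h]
  ring

/-- The `p`-part of the order of `SL_3(p)`. -/
theorem fact_SL {p : ℕ} (hp : p.Prime) (hF : Fintype.card F = p) : (Nat.card SL3).factorization p = 3 := by
  have h1 : ∀ k : ℕ, k ≠ 0 → (p ^ k - 1).factorization p = 0 := fun k hk => by
    refine Nat.factorization_eq_zero_of_not_dvd fun h => ?_
    have h2 : p ∣ p ^ k := dvd_pow_self p hk
    have h3 : 1 ≤ p ^ k := Nat.one_le_pow _ _ hp.pos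
    have h4 := (Nat.dvd_sub h2 h)
    rw [Nat.sub_sub_self h3] at h4
    exact hp.one_lt.ne' (Nat.dvd_one.1 h4)
  have h2 : ∀ k : ℕ, k ≠ 0 → p ^ k - 1 ≠ 0 := fun k hk => by
    have := Nat.one_lt_pow hk hp.one_lt
    omega
  rw [card_SL3 hF, Nat.factorization_mul (pow_ne_zero _ hp.ne_zero) (mul_ne_zero (h2 2 two_ne_zero) (h2 3 three_ne_zero)),
    Nat.factorization_mul (h2 2 two_ne_zero) (h2 3 three_ne_zero), Finsupp.add_apply, Finsupp.add_apply,
    h1 2 two_ne_zero, h1 3 three_ne_zero, Nat.factorization_pow]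
  simp [hp.factorization]

/-- **A solvable subgroup of `SL_3(p)` containing a Sylow `p`-subgroup is conjugate to a group of upper triangular
matrices containing the unitriangular ones.** -/
theorem exists_conj_upper {p : ℕ} (hp : p.Prime) (h5 : 5 ≤ p) (hF : Fintype.card F = p) (M : Subgroup SL3)
    (hM : Group.IsSolvable M) (hd : p ^ 3 ∣ Nat.card M) :
    ∃ g : SL3, UT F ≤ M.map (MulAut.conj g).toMonoidHom ∧ ∀ m ∈ M.map (MulAut.conj g).toMonoidHom,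
      (m : Matrix (Fin 3) (Fin 3) F) 1 0 = 0 ∧ (m : Matrix (Fin 3) (Fin 3) F) 2 0 = 0 ∧
      (m : Matrix (Fin 3) (Fin 3) F) 2 1 = 0 := by
  have := Fact.mk hp
  have hfact := fact_SL hp hF
  obtain ⟨P⟩ : Nonempty (Sylow p M) := inferInstance
  have hPcard : Nat.card ((P : Subgroup M).map M.subtype) = p ^ (Nat.card SL3).factorization p := by
    rw [Subgroup.card_map_of_injective (Subgroup.subtype_injective _), P.card_eq_multiplicity, hfact]
    congr 1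
    refine le_antisymm ?_ ?_
    · exact ((Nat.factorization_le_iff_dvd Nat.card_pos.ne' Nat.card_pos.ne').2
        (Subgroup.card_subgroup_dvd_card M) p).trans hfact.le
    · exact (hp.pow_dvd_iff_le_factorization Nat.card_pos.ne').1 hd
  have hUcard : Nat.card (UT F) = p ^ (Nat.card SL3).factorization p := by rw [card_UT, hF, hfact]
  obtain ⟨g, hg⟩ := MulAction.exists_smul_eq SL3 (Sylow.ofCard _ hPcard) (Sylow.ofCard _ hUcard)
  have h1 : UT F ≤ M.map (MulAut.conj g).toMonoidHom := by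
    have h2 := congrArg (fun S : Sylow p SL3 => (S : Subgroup SL3)) hg
    have h3 : UT F = (((P : Subgroup M).map M.subtype).map (MulAut.conj g).toMonoidHom) := by
      have h4 : ((Sylow.ofCard _ hUcard : Sylow p SL3) : Subgroup SL3) = UT F := rfl
      rw [← h4, ← hg, Sylow.coe_subgroup_smul]
      rfl
    rw [h3]
    exact Subgroup.map_mono (Subgroup.map_subtype_le _)
  refine ⟨g, h1, upper (by omega) (fun c => ?_) _ ?_ fun a b c => h1 ⟨a, b, c, rfl⟩⟩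
  · let e := ZMod.ringEquivOfPrime F hp hF
    obtain ⟨z, hz⟩ := e.surjective c
    refine ⟨z.val, ?_⟩
    rw [← hz]
    have : (z.val : F) = e (z.val : ZMod p) := by rw [map_natCast]
    rw [this, ZMod.natCast_zmod_val]
  · exact Cfsg.Agent.H176.NF.isSolvable_map _ hM

end Three

end Cfsg.Agent.H176.NFFlag
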