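import Mathlib
import Cfsg.Agent.H176.NFFlag
import Cfsg.Agent.H176.NFAbs
import Cfsg.Agent.H183.OutPSL

/-!
# `PSL_3(5)` is not the socle of a product of two solvable groups (helper176, S5773): the automorphisms
-/

set_option autoImplicit false

namespace Cfsg.Agent.H176.NFFive

open Matrix
open Cfsg.Agent.ClassicalGeometry.AutPSL.Root
open Cfsg.Agent.ClassicalGeometry.AutPSL.Auto
open Cfsg.Agent.ClassicalGeometry.AutPSL.Main
open Cfsg.Agent.H176.NFFlag

variable {F : Type} [Field F] [Fintype F]

local notation "SL3" => Matrix.SpecialLinearGroup (Fin 3) F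

theorem pow_four (hF : Fintype.card F = 5) {r : F} (hr : r ≠ 0) : r ^ 4 = 1 := by
  have := FiniteField.pow_card_sub_one_eq_one r hr
  rwa [hF] at this

theorem eq_one_of_cube (hF : Fintype.card F = 5) {r : F} (hr : r ^ 3 = 1) : r = 1 := by
  have h0 : r ≠ 0 := by
    rintro rfl
    simp at hr
  have h4 := pow_four hF h0
  rw [pow_succ, hr, one_mul] at h4
  exact h4

theorem center_bot (hF : Fintype.card F = 5) : Subgroup.center SL3 = ⊥ := by
  rw [eq_bot_iff]
  intro A hA
  obtain ⟨r, hr, hA⟩ := Matrix.SpecialLinearGroup.mem_center_iff.1 hA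
  rw [Fintype.card_fin] at hr
  rw [Subgroup.mem_bot]
  apply Subtype.ext
  rw [← hA, eq_one_of_cube hF hr, map_one]
  rfl

theorem conj_injective (hF : Fintype.card F = 5) : Function.Injective (MulAut.conj : SL3 →* MulAut SL3) := by
  rw [injective_iff_map_eq_one]
  intro g hg
  have h : g ∈ Subgroup.center SL3 := by
    rw [Subgroup.mem_center_iff]
    intro x
    have h1 : g * x * g⁻¹ = x := by
      have := congrArg (fun f : MulAut SL3 => f x) hg
      simpa using this
    rw [mul_inv_eq_iff_eq_mul] at h1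
    exact h1.symm
  rw [center_bot hF] at h
  exact Subgroup.mem_bot.1 h

theorem pr_injective (hF : Fintype.card F = 5) : Function.Injective (pr : SL3 → _) := by
  intro a b hab
  have h : a⁻¹ * b ∈ Subgroup.center SL3 := QuotientGroup.eq.1 hab
  rw [center_bot hF, Subgroup.mem_bot, inv_mul_eq_one] at h
  exact h

theorem lift_injective (hF : Fintype.card F = 5) {e f : MulAut SL3} (h : lift e = lift f) : e = f := by
  apply MulEquiv.ext
  intro x
  apply pr_injective hF
  rw [← lift_pr, ← lift_pr, h]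

theorem cj_eq (hF : Fintype.card F = 5) (A : GL (Fin 3) F) : ∃ B : SL3, cj A = MulAut.conj B := by
  have hd : (A : Matrix (Fin 3) (Fin 3) F).det ≠ 0 := by
    have h := (Matrix.isUnit_iff_isUnit_det _).1 A.isUnit
    exact h.ne_zero
  set c := (A : Matrix (Fin 3) (Fin 3) F).det with hc
  let B : SL3 := ⟨c • (A : Matrix (Fin 3) (Fin 3) F), by
    rw [Matrix.det_smul, Fintype.card_fin, ← hc, ← pow_succ]
    exact pow_four hF hd⟩
  refine ⟨B, ?_⟩
  apply MulEquiv.ext
  intro g
  apply Subtype.ext
  rw [coe_cj, MulAut.conj_apply]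
  have h1 : ((cj A g : SL3) * B : SL3) = B * g := by
    apply Subtype.ext
    rw [Matrix.SpecialLinearGroup.coe_mul, Matrix.SpecialLinearGroup.coe_mul, coe_cj]
    change _ * (c • (A : Matrix (Fin 3) (Fin 3) F)) = (c • (A : Matrix (Fin 3) (Fin 3) F)) * _
    rw [Matrix.mul_smul, Matrix.smul_mul, Matrix.mul_assoc, Matrix.mul_assoc, ← Units.val_mul, inv_mul_cancel,
      Units.val_one, Matrix.mul_one]
  rw [← h1, mul_inv_cancel_right, coe_cj]

theorem fld_eq_one (hF : Fintype.card F = 5) (σ : F ≃+* F) : (fld σ : MulAut SL3) = 1 := by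
  have h : σ = 1 := by
    apply RingEquiv.ext
    intro c
    let e := ZMod.ringEquivOfPrime F (by norm_num : Nat.Prime 5) hF
    obtain ⟨z, hz⟩ := e.surjective c
    rw [← hz]
    have h1 : (e : ZMod 5 → F) z = ((z.val : ℕ) : F) := by
      conv_lhs => rw [← ZMod.natCast_zmod_val z]
      rw [map_natCast]
    rw [h1, map_natCast]
    rfl
  rw [h, map_one]

/-- **The automorphisms of `SL_3(5)`.** -/
theorem aut_eq (hF : Fintype.card F = 5) (α : MulAut SL3) :
    (∃ B : SL3, α = MulAut.conj B) ∨ ∃ B : SL3, α = MulAut.conj B * itr := by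
  have := Fact.mk (by norm_num : Nat.Prime 5)
  have : CharP F 5 := by
    have e := ZMod.ringEquivOfPrime F (by norm_num : Nat.Prime 5) hF
    exact charP_of_injective_ringHom (f := (e : ZMod 5 →+* F)) e.injective 5
  rcases surj_three 5 le_rfl (lift α) with ⟨A, σ, h⟩ | ⟨A, σ, h⟩
  · left
    have h1 := lift_injective hF h
    obtain ⟨B, hB⟩ := cj_eq hF A
    exact ⟨B, by rw [h1, fld_eq_one hF, mul_one, hB]⟩
  · right
    have h1 := lift_injective hF h
    obtain ⟨B, hB⟩ := cj_eq hF A
    exact ⟨B, by rw [h1, fld_eq_one hF, mul_one, hB]⟩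

/-- `|Out(SL_3(5))| ≤ 2`. -/
theorem index_le (hF : Fintype.card F = 5) : (MulAut.conj : SL3 →* MulAut SL3).range.index ≤ 2 := by
  let f : Bool → MulAut SL3 ⧸ (MulAut.conj : SL3 →* MulAut SL3).range := fun b =>
    QuotientGroup.mk (if b then itr else 1)
  have hf : Function.Surjective f := by
    intro x
    obtain ⟨α, rfl⟩ := QuotientGroup.mk_surjective x
    rcases aut_eq hF α with ⟨B, hB⟩ | ⟨B, hB⟩
    · refine ⟨false, ?_⟩
      change QuotientGroup.mk 1 = QuotientGroup.mk α
      rw [QuotientGroup.eq, inv_one, one_mul, hB]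
      exact ⟨B, rfl⟩
    · refine ⟨true, ?_⟩
      change QuotientGroup.mk itr = QuotientGroup.mk α
      rw [QuotientGroup.eq, hB]
      refine ⟨itr⁻¹ B, ?_⟩
      apply MulEquiv.ext
      intro x
      simp only [MulAut.conj_apply, MulAut.mul_apply, map_mul, map_inv, MulAut.inv_apply_self]
  have h1 := Nat.card_le_card_of_surjective f hf
  rw [Nat.card_eq_fintype_card (α := Bool), Fintype.card_bool] at h1
  exact h1

/-- Inverse transpose and conjugation. -/
theorem itr_conj (B : SL3) : itr * MulAut.conj B = MulAut.conj (itr B) * itr := by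
  apply MulEquiv.ext
  intro x
  simp only [MulAut.conj_apply, MulAut.mul_apply, map_mul, map_inv]

/-- The outer involutions are given by symmetric matrices. -/
theorem symm_of_sq (hF : Fintype.card F = 5) {B : SL3} (h : (MulAut.conj B * itr) * (MulAut.conj B * itr) = 1) :
    (B : Matrix (Fin 3) (Fin 3) F)ᵀ = B := by
  have h1 : (MulAut.conj B * itr) * (MulAut.conj B * itr) = MulAut.conj (B * itr B) := by
    calc (MulAut.conj B * itr) * (MulAut.conj B * itr) = MulAut.conj B * (itr * MulAut.conj B) * itr := by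
          simp only [mul_assoc]
      _ = MulAut.conj B * (MulAut.conj (itr B)) * (itr * itr) := by rw [itr_conj]; simp only [mul_assoc]
      _ = _ := by rw [itr_mul_itr, mul_one, ← map_mul]
  rw [h1] at h
  have h2 : B * itr B = 1 := conj_injective hF (by rw [h, map_one])
  have h3 : itr (B * itr B) = 1 := by rw [h2, map_one]
  rw [map_mul, ← MulAut.mul_apply, itr_mul_itr, MulAut.one_apply, mul_eq_one_iff_eq_inv'] at h3
  have h4 := congrArg Subtype.val h3
  have h5 : (itr B : SL3)⁻¹ = B.transpose := by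
    rw [inv_eq_iff_mul_eq_one]
    apply Subtype.ext
    rw [Matrix.SpecialLinearGroup.coe_mul, coe_itr]
    change _ * (B : Matrix (Fin 3) (Fin 3) F)ᵀ = _
    rw [← transpose_mul, ← Matrix.SpecialLinearGroup.coe_mul, mul_inv_cancel,
      Matrix.SpecialLinearGroup.coe_one, transpose_one]
  rw [h5] at h4
  exact h4.symm

end Cfsg.Agent.H176.NFFive
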