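import Mathlib
import Cfsg.Agent.H176.NFFive
import Cfsg.Agent.H208.TriAbs

/-!
# `PSL_3(5)` is not the socle of a product of two solvable groups (helper176, S5773): outer involutions fix a flag
-/

set_option autoImplicit false

namespace Cfsg.Agent.H176.NFFive

open Matrix Pointwise
open Cfsg.Agent.ClassicalGeometry.AutPSL.Root
open Cfsg.Agent.ClassicalGeometry.AutPSL.Auto
open Cfsg.Agent.ClassicalGeometry.AutPSL.Main
open Cfsg.Agent.H176.NFFlag

variable {F : Type} [Field F]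

local notation "SL3" => Matrix.SpecialLinearGroup (Fin 3) F

open Cfsg.Agent.H208.TriAbs in
theorem exists_iso [Finite F] (B : Matrix (Fin 3) (Fin 3) F) : ∃ v : Fin 3 → F, v ≠ 0 ∧ v ⬝ᵥ (B *ᵥ v) = 0 := by
  have h : PF (ι := Fin 3) (K := F) 2 fun v => v ⬝ᵥ (B *ᵥ v) := by
    have h1 : (fun v : Fin 3 → F => v ⬝ᵥ (B *ᵥ v)) = fun v => ∑ i, ∑ j, B i j * (v i * v j) := by
      funext v
      simp only [dotProduct, Matrix.mulVec, Finset.mul_sum]
      refine Finset.sum_congr rfl fun i _ => Finset.sum_congr rfl fun j _ => ?_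
      ring
    rw [h1]
    exact PF.sum _ fun i _ => PF.sum _ fun j _ => PF.smul _ ((PF.coord i).mul (PF.coord j))
  obtain ⟨v, hv, hv'⟩ := exists_zero (κ := Unit) (f := fun _ v => v ⬝ᵥ (B *ᵥ v)) (d := fun _ => 2) (fun _ => h)
    (by simp) (fun _ => by simp)
  exact ⟨v, hv, hv' ()⟩

theorem exists_row (v : Fin 3 → F) (hv : v ≠ 0) : ∃ D : SL3, ∀ j, (D : Matrix (Fin 3) (Fin 3) F) 2 j = v j := by
  by_cases h2 : v 2 = 0
  · by_cases h1 : v 1 = 0
    · have h0 : v 0 ≠ 0 := by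
        intro h0
        apply hv
        funext j
        fin_cases j <;> simp [h0, h1, h2]
      refine ⟨⟨!![0, (v 0)⁻¹, 0; 0, 0, 1; v 0, v 1, v 2], ?_⟩, fun j => ?_⟩
      · simp [Matrix.det_fin_three, h0, h1, h2]
      · fin_cases j <;> simp
    · refine ⟨⟨!![(v 1)⁻¹, 0, 0; 0, 0, -1; v 0, v 1, v 2], ?_⟩, fun j => ?_⟩
      · simp [Matrix.det_fin_three, h1]
      · fin_cases j <;> simp
  · refine ⟨⟨!![(v 2)⁻¹, 0, 0; 0, 1, 0; v 0, v 1, v 2], ?_⟩, fun j => ?_⟩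
    · simp [Matrix.det_fin_three, h2]
    · fin_cases j <;> simp

/-- Congruence. -/
theorem cg_symm {B D : Matrix (Fin 3) (Fin 3) F} (hB : Bᵀ = B) : (D * B * Dᵀ)ᵀ = D * B * Dᵀ := by
  rw [transpose_mul, transpose_mul, transpose_transpose, hB, Matrix.mul_assoc]

theorem exists_congr [Finite F] (B : SL3) (hB : (B : Matrix (Fin 3) (Fin 3) F)ᵀ = B) : ∃ D : SL3,
    ((D * B * D.transpose : SL3) : Matrix (Fin 3) (Fin 3) F) 2 2 = 0 ∧
    ((D * B * D.transpose : SL3) : Matrix (Fin 3) (Fin 3) F) 1 2 = 0 ∧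
    ((D * B * D.transpose : SL3) : Matrix (Fin 3) (Fin 3) F) 2 1 = 0 := by
  obtain ⟨v, hv, hv'⟩ := exists_iso (B : Matrix (Fin 3) (Fin 3) F)
  obtain ⟨D₁, hD₁⟩ := exists_row v hv
  set B₁ : SL3 := D₁ * B * D₁.transpose with hB₁
  have hs₁ : (B₁ : Matrix (Fin 3) (Fin 3) F)ᵀ = B₁ := cg_symm hB
  have h22 : (B₁ : Matrix (Fin 3) (Fin 3) F) 2 2 = 0 := by
    rw [← hv']
    change ((D₁ : Matrix (Fin 3) (Fin 3) F) * B * (D₁ : Matrix (Fin 3) (Fin 3) F)ᵀ) 2 2 = _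
    simp only [Matrix.mul_apply, Matrix.transpose_apply, Fin.sum_univ_three, dotProduct, Matrix.mulVec, hD₁]
    ring
  have h21 : (B₁ : Matrix (Fin 3) (Fin 3) F) 2 1 = (B₁ : Matrix (Fin 3) (Fin 3) F) 1 2 := by
    conv_rhs => rw [← hs₁, Matrix.transpose_apply]
  have h20 : (B₁ : Matrix (Fin 3) (Fin 3) F) 2 0 = (B₁ : Matrix (Fin 3) (Fin 3) F) 0 2 := by
    conv_rhs => rw [← hs₁, Matrix.transpose_apply]
  have key : ∀ D₂ : SL3, (D₂ : Matrix (Fin 3) (Fin 3) F) 2 0 = 0 → (D₂ : Matrix (Fin 3) (Fin 3) F) 2 1 = 0 →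
      (D₂ : Matrix (Fin 3) (Fin 3) F) 2 2 = 1 →
      (D₂ : Matrix (Fin 3) (Fin 3) F) 1 0 * (B₁ : Matrix (Fin 3) (Fin 3) F) 0 2 +
        (D₂ : Matrix (Fin 3) (Fin 3) F) 1 1 * (B₁ : Matrix (Fin 3) (Fin 3) F) 1 2 = 0 →
      ∃ D : SL3, ((D * B * D.transpose : SL3) : Matrix (Fin 3) (Fin 3) F) 2 2 = 0 ∧
        ((D * B * D.transpose : SL3) : Matrix (Fin 3) (Fin 3) F) 1 2 = 0 ∧
        ((D * B * D.transpose : SL3) : Matrix (Fin 3) (Fin 3) F) 2 1 = 0 := by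
    intro D₂ e0 e1 e2 e
    have h : (D₂ * D₁) * B * (D₂ * D₁).transpose = D₂ * B₁ * D₂.transpose := by
      apply Subtype.ext
      change ((D₂ : Matrix (Fin 3) (Fin 3) F) * (D₁ : Matrix (Fin 3) (Fin 3) F)) * (B : Matrix (Fin 3) (Fin 3) F) *
        ((D₂ : Matrix (Fin 3) (Fin 3) F) * (D₁ : Matrix (Fin 3) (Fin 3) F))ᵀ =
        (D₂ : Matrix (Fin 3) (Fin 3) F) * ((D₁ : Matrix (Fin 3) (Fin 3) F) * (B : Matrix (Fin 3) (Fin 3) F) *
          (D₁ : Matrix (Fin 3) (Fin 3) F)ᵀ) * (D₂ : Matrix (Fin 3) (Fin 3) F)ᵀ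
      rw [transpose_mul]
      simp only [Matrix.mul_assoc]
    have hc : ∀ i j, ((D₂ * B₁ * D₂.transpose : SL3) : Matrix (Fin 3) (Fin 3) F) i j =
        ((D₂ : Matrix (Fin 3) (Fin 3) F) * B₁ * (D₂ : Matrix (Fin 3) (Fin 3) F)ᵀ) i j := fun i j => rfl
    refine ⟨D₂ * D₁, ?_, ?_, ?_⟩ <;> rw [h, hc] <;>
      simp only [Matrix.mul_apply, Matrix.transpose_apply, Fin.sum_univ_three, e0, e1, e2, h22, h21, h20]
    · ring
    · linear_combination e
    · linear_combination e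
  by_cases hx : (B₁ : Matrix (Fin 3) (Fin 3) F) 0 2 = 0
  · refine key ⟨!![0, 1, 0; -1, 0, 0; 0, 0, 1], by simp [Matrix.det_fin_three]⟩ ?_ ?_ ?_ ?_
    · simp
    · simp
    · simp
    · simp [hx]
  · refine key ⟨!![1, 0, 0; -(B₁ : Matrix (Fin 3) (Fin 3) F) 1 2 * ((B₁ : Matrix (Fin 3) (Fin 3) F) 0 2)⁻¹, 1, 0; 0, 0, 1],
      by simp [Matrix.det_fin_three]⟩ ?_ ?_ ?_ ?_
    · simp
    · simp
    · simp
    · simp [hx]

theorem coe_itr_ut (a b c : F) : ((itr (ut a b c) : SL3) : Matrix (Fin 3) (Fin 3) F) =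
    !![1, 0, 0; -a, 1, 0; a * b - c, -b, 1] := by
  rw [coe_itr, Matrix.SpecialLinearGroup.coe_inv, coe_ut, Matrix.adjugate_fin_three]
  ext i j
  fin_cases i <;> fin_cases j <;> simp

theorem ut_stable (E : SL3) (hE : (E : Matrix (Fin 3) (Fin 3) F)ᵀ = E) (h22 : (E : Matrix (Fin 3) (Fin 3) F) 2 2 = 0)
    (h12 : (E : Matrix (Fin 3) (Fin 3) F) 1 2 = 0) (h21 : (E : Matrix (Fin 3) (Fin 3) F) 2 1 = 0) (g : SL3)
    (hg : g ∈ UT F) : (MulAut.conj E * itr : MulAut SL3) g ∈ UT F := by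
  obtain ⟨a, b, c, rfl⟩ := hg
  rw [MulAut.mul_apply, MulAut.conj_apply]
  have h10 : (E : Matrix (Fin 3) (Fin 3) F) 1 0 = (E : Matrix (Fin 3) (Fin 3) F) 0 1 := by
    conv_rhs => rw [← hE, Matrix.transpose_apply]
  have h20 : (E : Matrix (Fin 3) (Fin 3) F) 2 0 = (E : Matrix (Fin 3) (Fin 3) F) 0 2 := by
    conv_rhs => rw [← hE, Matrix.transpose_apply]
  set p := (E : Matrix (Fin 3) (Fin 3) F) 0 0 with hp
  set q := (E : Matrix (Fin 3) (Fin 3) F) 0 1 with hq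
  set r := (E : Matrix (Fin 3) (Fin 3) F) 0 2 with hr
  set s := (E : Matrix (Fin 3) (Fin 3) F) 1 1 with hs
  have hd : (E : Matrix (Fin 3) (Fin 3) F).det = 1 := E.2
  rw [Matrix.det_fin_three, h22, h12, h21, h10, h20, ← hp, ← hq, ← hr, ← hs] at hd
  have hrs : r ≠ 0 ∧ s ≠ 0 := by
    constructor
    · rintro h
      rw [h] at hd
      simp at hd
    · rintro h
      rw [h] at hd
      simp at hd
  obtain ⟨hr0, hs0⟩ := hrs
  let x := -(r * b) * s⁻¹
  let y := -(s * a) * r⁻¹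
  let z := (-(q * a) + r * (a * b - c) - x * q) * r⁻¹
  refine ⟨x, y, z, ?_⟩
  rw [mul_inv_eq_iff_eq_mul]
  apply Subtype.ext
  rw [Matrix.SpecialLinearGroup.coe_mul, Matrix.SpecialLinearGroup.coe_mul, coe_itr_ut, coe_ut]
  have hEe : (E : Matrix (Fin 3) (Fin 3) F) = !![p, q, r; q, s, 0; r, 0, 0] := by
    ext i j
    fin_cases i <;> fin_cases j <;> simp [hp, hq, hr, hs, h10, h20, h12, h21, h22]
  rw [hEe]
  have hx : x * s = -(r * b) := by
    change -(r * b) * s⁻¹ * s = _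
    rw [mul_assoc, inv_mul_cancel₀ hs0, mul_one]
  have hy : y * r = -(s * a) := by
    change -(s * a) * r⁻¹ * r = _
    rw [mul_assoc, inv_mul_cancel₀ hr0, mul_one]
  have hz : z * r = (-(q * a) + r * (a * b - c) - x * q) := by
    change (-(q * a) + r * (a * b - c) - x * q) * r⁻¹ * r = _
    rw [mul_assoc, inv_mul_cancel₀ hr0, mul_one]
  ext i j
  fin_cases i <;> fin_cases j <;> simp [Matrix.mul_apply, Fin.sum_univ_three]
  · linear_combination -hz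
  · linear_combination -hx
  · linear_combination -hy

variable [Fintype F]

/-- The standard Sylow subgroup. -/
noncomputable def S0 (hF : Fintype.card F = 5) : Sylow 5 SL3 :=
  haveI := Fact.mk (by norm_num : Nat.Prime 5)
  Sylow.ofCard (UT F) (by rw [card_UT, hF, fact_SL (by norm_num) hF])

theorem coe_S0 (hF : Fintype.card F = 5) : ((S0 hF : Sylow 5 SL3) : Subgroup SL3) = UT F := rfl

theorem card_S0 (S : Sylow 5 SL3) (hF : Fintype.card F = 5) : Nat.card S = 125 := by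
  have := Fact.mk (by norm_num : Nat.Prime 5)
  rw [S.card_eq_multiplicity, fact_SL (by norm_num) hF]
  norm_num

theorem smul_eq_of (hF : Fintype.card F = 5) (t : MulAut SL3) (S S' : Sylow 5 SL3)
    (h : ∀ g ∈ S, t g ∈ S') : t • S = S' := by
  apply Sylow.ext
  rw [Sylow.pointwise_smul_def]
  refine Subgroup.eq_of_le_of_card_ge ?_ ?_
  · rintro _ ⟨g, hg, rfl⟩
    exact h g hg
  · rw [← Sylow.pointwise_smul_def]
    exact ((card_S0 S' hF).trans (card_S0 _ hF).symm).le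

/-- **An outer involution fixes a Sylow `5`-subgroup.** -/
theorem exists_fixed (hF : Fintype.card F = 5) {B : SL3}
    (h : (MulAut.conj B * itr) * (MulAut.conj B * itr) = 1) :
    ∃ S : Sylow 5 SL3, (MulAut.conj B * itr : MulAut SL3) • S = S := by
  have hB := symm_of_sq hF h
  obtain ⟨D, h22, h12, h21⟩ := exists_congr B hB
  have h1 : MulAut.conj (D * B * D.transpose) * itr = MulAut.conj D * (MulAut.conj B * itr) * (MulAut.conj D)⁻¹ := by
    have e : D.transpose = itr D⁻¹ := by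
      apply Subtype.ext
      rw [coe_itr, inv_inv]
      rfl
    rw [map_mul, map_mul, ← map_inv, e]
    calc MulAut.conj D * MulAut.conj B * MulAut.conj (itr D⁻¹) * itr =
        MulAut.conj D * MulAut.conj B * (MulAut.conj (itr D⁻¹) * itr) := by simp only [mul_assoc]
      _ = _ := by rw [← itr_conj]; simp only [mul_assoc]
  have h2 : (MulAut.conj (D * B * D.transpose) * itr : MulAut SL3) • S0 hF = S0 hF :=
    smul_eq_of hF _ _ _ fun g hg => ut_stable _ (cg_symm hB) h22 h12 h21 g hg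
  refine ⟨(MulAut.conj D)⁻¹ • S0 hF, ?_⟩
  rw [h1, mul_smul, mul_smul] at h2
  rw [eq_inv_smul_iff]
  exact h2

end Cfsg.Agent.H176.NFFive
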