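import Mathlib
import Cfsg.Agent.H176.NFFiveB
import Cfsg.Agent.H743.NFLinB
import Cfsg.Agent.H222.NFLinC
import Cfsg.Agent.H518.DghpSep

/-!
# `PSL_3(5)` is not the socle of a product of two solvable groups (helper176, S5773)
-/

set_option autoImplicit false

namespace Cfsg.Agent.H176.NFFive

open Matrix Pointwise
open Cfsg.Agent.ClassicalGeometry.AutPSL.Root
open Cfsg.Agent.ClassicalGeometry.AutPSL.Auto
open Cfsg.Agent.ClassicalGeometry.AutPSL.Main
open Cfsg.Agent.H176.NFFlag
open Cfsg.Agent.H176.NF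

variable {F : Type} [Field F] [Fintype F]

local notation "SL3" => Matrix.SpecialLinearGroup (Fin 3) F

/-- Upper triangular. -/
def Up (m : SL3) : Prop :=
  (m : Matrix (Fin 3) (Fin 3) F) 1 0 = 0 ∧ (m : Matrix (Fin 3) (Fin 3) F) 2 0 = 0 ∧
      (m : Matrix (Fin 3) (Fin 3) F) 2 1 = 0

omit [Fintype F] in
theorem Up.pow {m : SL3} (h : Up m) (n : ℕ) : Up (m ^ n) ∧ ∀ i, ((m ^ n : SL3) : Matrix (Fin 3) (Fin 3) F) i i =
    (m : Matrix (Fin 3) (Fin 3) F) i i ^ n := by
  induction n with
  | zero =>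
    refine ⟨⟨?_, ?_, ?_⟩, fun i => ?_⟩ <;> simp
  | succ n ih =>
    obtain ⟨⟨h1, h2, h3⟩, h4⟩ := ih
    obtain ⟨k1, k2, k3⟩ := h
    refine ⟨⟨?_, ?_, ?_⟩, fun i => ?_⟩
    · rw [pow_succ, Matrix.SpecialLinearGroup.coe_mul, Matrix.mul_apply, Fin.sum_univ_three, h1, k1, k2]
      ring
    · rw [pow_succ, Matrix.SpecialLinearGroup.coe_mul, Matrix.mul_apply, Fin.sum_univ_three, h2, k1, k2]
      ring
    · rw [pow_succ, Matrix.SpecialLinearGroup.coe_mul, Matrix.mul_apply, Fin.sum_univ_three, h2, h3, k3]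
      ring
    · rw [pow_succ, Matrix.SpecialLinearGroup.coe_mul, Matrix.mul_apply, Fin.sum_univ_three, pow_succ]
      fin_cases i
      · simp only [Fin.zero_eta, h4, k1, k2]
        ring
      · simp only [Fin.mk_one, h4, h1, k3]
        ring
      · simp only [Fin.reduceFinMk, h4, h2, h3]
        ring

theorem mem_UT_of_pow (hF : Fintype.card F = 5) {m : SL3} (hm : Up m) (hk : m ^ 125 = 1) : m ∈ UT F := by
  have h5 : ∀ x : F, x ^ 5 = x := fun x => by
    have := FiniteField.pow_card x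
    rwa [hF] at this
  have h1 : ∀ i, (m : Matrix (Fin 3) (Fin 3) F) i i = 1 := by
    intro i
    have h2 := (hm.pow 125).2 i
    rw [hk, Matrix.SpecialLinearGroup.coe_one, Matrix.one_apply_eq] at h2
    have h3 : ∀ x : F, x ^ 125 = x := fun x => by
      rw [show (125 : ℕ) = 5 * 5 * 5 by norm_num, pow_mul, pow_mul, h5, h5, h5]
    rw [h3] at h2
    exact h2.symm
  obtain ⟨k1, k2, k3⟩ := hm
  refine ⟨(m : Matrix (Fin 3) (Fin 3) F) 0 1, (m : Matrix (Fin 3) (Fin 3) F) 1 2, (m : Matrix (Fin 3) (Fin 3) F) 0 2, ?_⟩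
  apply Subtype.ext
  rw [coe_ut]
  ext i j
  fin_cases i <;> fin_cases j <;> simp [k1, k2, k3, h1]

omit [Fintype F] in
theorem up_of_normalizer {g : SL3} (hg : g ∈ Subgroup.normalizer (UT F : Set SL3)) : Up g := by
  have h1 : ∀ a b c : F, ∃ a' b' c' : F, ut a b c * g = g * ut a' b' c' := by
    intro a b c
    have h : g⁻¹ * ut a b c * g ∈ UT F := by
      have := (Subgroup.mem_normalizer_iff.1 (Subgroup.inv_mem _ hg) (ut a b c)).1 ⟨a, b, c, rfl⟩
      rwa [inv_inv] at this
    obtain ⟨a', b', c', h⟩ := h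
    refine ⟨a', b', c', ?_⟩
    rw [← h]
    group
  have h2 : ∀ a b c : F, ∃ a' b' c' : F, g * ut a b c = ut a' b' c' * g := by
    intro a b c
    obtain ⟨a', b', c', h⟩ := (Subgroup.mem_normalizer_iff.1 hg (ut a b c)).1 ⟨a, b, c, rfl⟩
    refine ⟨a', b', c', ?_⟩
    rw [← h]
    group
  have e1 : ∀ a b c : F, a * (g : Matrix (Fin 3) (Fin 3) F) 1 0 + c * (g : Matrix (Fin 3) (Fin 3) F) 2 0 = 0 := by
    intro a b c
    obtain ⟨a', b', c', h⟩ := h1 a b c
    have h3 := congrArg (fun m : SL3 => (m : Matrix (Fin 3) (Fin 3) F) 0 0) h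
    simp only [Matrix.SpecialLinearGroup.coe_mul, Matrix.mul_apply, Fin.sum_univ_three, coe_ut] at h3
    simp at h3
    linear_combination h3
  have e2 : ∀ a b c : F, a * (g : Matrix (Fin 3) (Fin 3) F) 2 0 = 0 ∧
      c * (g : Matrix (Fin 3) (Fin 3) F) 2 0 + b * (g : Matrix (Fin 3) (Fin 3) F) 2 1 = 0 := by
    intro a b c
    obtain ⟨a', b', c', h⟩ := h2 a b c
    have h3 := congrArg (fun m : SL3 => (m : Matrix (Fin 3) (Fin 3) F) 2 1) h
    have h4 := congrArg (fun m : SL3 => (m : Matrix (Fin 3) (Fin 3) F) 2 2) h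
    simp only [Matrix.SpecialLinearGroup.coe_mul, Matrix.mul_apply, Fin.sum_univ_three, coe_ut] at h3 h4
    simp at h3 h4
    refine ⟨?_, ?_⟩
    · rcases h3 with h3 | h3
      · rw [h3, mul_zero]
      · rw [h3, zero_mul]
    · linear_combination h4
  have k2 : (g : Matrix (Fin 3) (Fin 3) F) 2 0 = 0 := by simpa using (e2 1 0 0).1
  have k1 : (g : Matrix (Fin 3) (Fin 3) F) 1 0 = 0 := by simpa using e1 1 0 0
  have k3 : (g : Matrix (Fin 3) (Fin 3) F) 2 1 = 0 := by simpa using (e2 0 1 0).2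
  exact ⟨k1, k2, k3⟩

theorem card_normalizer_le (hF : Fintype.card F = 5) :
    Nat.card ↥(Subgroup.normalizer (UT F : Set SL3)) ≤ 2000 := by
  let f : ↥(Subgroup.normalizer (UT F : Set SL3)) → {x : F // x ≠ 0} × {x : F // x ≠ 0} × F × F × F := fun g =>
    (⟨(g.1 : Matrix (Fin 3) (Fin 3) F) 0 0, fun h => by
      have hd : (g.1 : Matrix (Fin 3) (Fin 3) F).det = 1 := g.1.2
      obtain ⟨k1, k2, k3⟩ := up_of_normalizer g.2
      rw [Matrix.det_fin_three, k1, k2, k3, h] at hd
      simp at hd⟩,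
     ⟨(g.1 : Matrix (Fin 3) (Fin 3) F) 1 1, fun h => by
      have hd : (g.1 : Matrix (Fin 3) (Fin 3) F).det = 1 := g.1.2
      obtain ⟨k1, k2, k3⟩ := up_of_normalizer g.2
      rw [Matrix.det_fin_three, k1, k2, k3, h] at hd
      simp at hd⟩,
     (g.1 : Matrix (Fin 3) (Fin 3) F) 0 1, (g.1 : Matrix (Fin 3) (Fin 3) F) 0 2, (g.1 : Matrix (Fin 3) (Fin 3) F) 1 2)
  have hf : Function.Injective f := by
    intro g g' h
    simp only [f, Prod.mk.injEq, Subtype.mk.injEq] at h
    obtain ⟨h00, h11, h01, h02, h12⟩ := h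
    obtain ⟨k1, k2, k3⟩ := up_of_normalizer g.2
    obtain ⟨l1, l2, l3⟩ := up_of_normalizer g'.2
    have hd : (g.1 : Matrix (Fin 3) (Fin 3) F).det = 1 := g.1.2
    have hd' : (g'.1 : Matrix (Fin 3) (Fin 3) F).det = 1 := g'.1.2
    rw [Matrix.det_fin_three, k1, k2, k3] at hd
    rw [Matrix.det_fin_three, l1, l2, l3] at hd'
    simp only [mul_zero, zero_mul, sub_zero, add_zero] at hd hd'
    rw [← h00, ← h11] at hd'
    have h22 : (g.1 : Matrix (Fin 3) (Fin 3) F) 2 2 = (g'.1 : Matrix (Fin 3) (Fin 3) F) 2 2 := by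
      have hne : (g.1 : Matrix (Fin 3) (Fin 3) F) 0 0 * (g.1 : Matrix (Fin 3) (Fin 3) F) 1 1 ≠ 0 := by
        intro h0
        rw [h0, zero_mul] at hd
        exact zero_ne_one hd
      exact mul_left_cancel₀ hne (hd.trans hd'.symm)
    apply Subtype.ext
    apply Subtype.ext
    ext i j
    fin_cases i <;> fin_cases j <;> simp [h00, h11, h01, h02, h12, h22, k1, k2, k3, l1, l2, l3]
  classical
  have h1 := Nat.card_le_card_of_injective f hf
  have h2 : Fintype.card {x : F // x ≠ 0} = 4 := by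
    rw [Fintype.card_subtype_compl, hF, Fintype.card_subtype_eq]
  rw [Nat.card_prod, Nat.card_prod, Nat.card_prod, Nat.card_prod, Nat.card_eq_fintype_card (α := F), hF,
    Nat.card_eq_fintype_card (α := {x : F // x ≠ 0}), h2] at h1
  exact h1

theorem card_SL (hF : Fintype.card F = 5) : Nat.card SL3 = 372000 := by
  rw [card_SL3 hF]
  norm_num

theorem card_sylow (hF : Fintype.card F = 5) : 186 ≤ Nat.card (Sylow 5 SL3) := by
  have := Fact.mk (by norm_num : Nat.Prime 5)
  have h1 := (S0 hF : Sylow 5 SL3).card_eq_index_normalizer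
  change _ = (Subgroup.normalizer (UT F : Set SL3)).index at h1
  have h2 := Subgroup.card_mul_index (Subgroup.normalizer (UT F : Set SL3))
  rw [← h1, card_SL hF] at h2
  have h3 := card_normalizer_le hF
  by_contra hcon
  push Not at hcon
  have h4 : Nat.card ↥(Subgroup.normalizer (UT F : Set SL3)) * Nat.card (Sylow 5 SL3) ≤ 2000 * 185 :=
    Nat.mul_le_mul h3 (by omega)
  omega

/-- A solvable subgroup of the automorphism group of inner part of order divisible by `125` fixes a Sylow subgroup. -/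
theorem exists_fixed_sylow (hF : Fintype.card F = 5) (K : Subgroup (MulAut SL3))
    (hK : Group.IsSolvable K) (h5 : 125 ∣ Nat.card ↥(K.comap (MulAut.conj : SL3 →* MulAut SL3))) :
    ∃ S : Sylow 5 SL3, ∀ k ∈ K, k • S = S := by
  obtain ⟨g, hg, hg'⟩ := exists_conj_upper (by norm_num : Nat.Prime 5) le_rfl hF _
    (isSolvable_comap _ (conj_injective hF) hK) (by norm_num; exact h5)
  refine ⟨(MulAut.conj g)⁻¹ • S0 hF, fun k hk => ?_⟩
  refine smul_eq_of hF _ _ _ fun x hx => ?_
  have hmem : ∀ x : SL3, x ∈ ((MulAut.conj g)⁻¹ • S0 hF : Sylow 5 SL3) ↔ g * x * g⁻¹ ∈ UT F := by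
    intro x
    change x ∈ (((MulAut.conj g)⁻¹ • S0 hF : Sylow 5 SL3) : Subgroup SL3) ↔ _
    rw [Sylow.pointwise_smul_def, Subgroup.mem_inv_pointwise_smul_iff, coe_S0]
    rfl
  rw [hmem] at hx ⊢
  have h1 : x ∈ K.comap (MulAut.conj : SL3 →* MulAut SL3) := by
    obtain ⟨y, hy, e⟩ := hg hx
    have e' : g * y * g⁻¹ = g * x * g⁻¹ := e
    have : y = x := by simpa using e'
    rw [← this]
    exact hy
  have h2 : k x ∈ K.comap (MulAut.conj : SL3 →* MulAut SL3) := by
    rw [Subgroup.mem_comap]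
    have e : (MulAut.conj (k x) : MulAut SL3) = k * MulAut.conj x * k⁻¹ := by
      apply MulEquiv.ext
      intro y
      simp only [MulAut.conj_apply, MulAut.mul_apply, map_mul, map_inv, MulAut.apply_inv_self]
    rw [e]
    exact K.mul_mem (K.mul_mem hk h1) (K.inv_mem hk)
  have h3 : Up (g * k x * g⁻¹) := hg' _ ⟨k x, h2, rfl⟩
  refine mem_UT_of_pow hF h3 ?_
  have h4 : (g * x * g⁻¹) ^ 125 = 1 := by
    have h5 : Nat.card (UT F) = 125 := by rw [card_UT, hF]; norm_num
    have h6 : (⟨_, hx⟩ : UT F) ^ 125 = 1 := by rw [← h5]; exact pow_card_eq_one'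
    exact congrArg Subtype.val h6
  rw [conj_pow] at h4 ⊢
  rw [mul_inv_eq_one, mul_eq_left] at h4 ⊢
  rw [← map_pow, h4, map_one]

theorem bd (hF : Fintype.card F = 5) : Bd SL3 31 5 0 := by
  have ho : orderOf ((Fintype.card F : ℕ) : ZMod 31) = 3 := by
    rw [hF]
    have := Fact.mk (by norm_num : Nat.Prime 3)
    exact orderOf_eq_prime (by decide) (by decide)
  have h := H743.NFLinB.bdOfUnip bdAbs SL3 F (Fin 3)
    { toFun := fun g => (g : Matrix (Fin 3) (Fin 3) F), map_one' := rfl, map_mul' := fun _ _ => rfl }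
    Subtype.val_injective 31 5 3 0 (by norm_num) (by norm_num) (by norm_num) (by rw [hF]; norm_num) ho
    (by rw [Fintype.card_fin]; norm_num) ?_
  · exact h.mono (by
      have : (3 : ℕ).factorization 5 = 0 := Nat.factorization_eq_zero_of_not_dvd (by norm_num)
      omega)
  · intro x hx U hU hxU
    have h2 := H222.NFLin.unipLin SL3 F 3
      { toFun := fun g => (g : Matrix (Fin 3) (Fin 3) F), map_one' := rfl, map_mul' := fun _ _ => rfl }
      Subtype.val_injective 31 5 3 1 (by norm_num) (by norm_num) (by norm_num) (by rw [hF]; norm_num) ho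
      (by norm_num) x hx U hU hxU
    simpa using h2

open Cfsg.Agent.H518.Dghp Cfsg.Agent.H518.DghpSep in
theorem sep (hF : Fintype.card F = 5) : Sep SL3 31 2 := by
  have ho : orderOf ((Fintype.card F : ℕ) : ZMod 31) = 3 := by
    rw [hF]
    have := Fact.mk (by norm_num : Nat.Prime 3)
    exact orderOf_eq_prime (by decide) (by decide)
  let φ : SL3 →* ((Fin 3 → F) →ₗ[F] (Fin 3 → F)) :=
    { toFun := fun g => Matrix.toLin' (g : Matrix (Fin 3) (Fin 3) F)
      map_one' := by rw [Matrix.SpecialLinearGroup.coe_one, Matrix.toLin'_one]; rfl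
      map_mul' := fun g h => by rw [Matrix.SpecialLinearGroup.coe_mul, Matrix.toLin'_mul]; rfl }
  refine sep_two φ (fun g h e => Subtype.ext (Matrix.toLin'.injective e)) (by norm_num) (by rw [hF]; norm_num)
    (by rw [hF]; norm_num) ho (by rw [Module.finrank_fin_fun]) (by norm_num) fun y hy => ?_
  have h1 : (y : Matrix (Fin 3) (Fin 3) F) = -1 := by
    apply Matrix.toLin'.injective
    rw [map_neg, Matrix.toLin'_one]
    exact hy
  have h2 : (y : Matrix (Fin 3) (Fin 3) F).det = 1 := y.2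
  rw [h1, Matrix.det_neg, Matrix.det_one, Fintype.card_fin, mul_one] at h2
  have h3 : (2 : F) = 0 := by linear_combination -h2
  have := Fact.mk (by norm_num : Nat.Prime 5)
  have : CharP F 5 := by
    have e := ZMod.ringEquivOfPrime F (by norm_num : Nat.Prime 5) hF
    exact charP_of_injective_ringHom (f := (e : ZMod 5 →+* F)) e.injective 5
  have h4 := (CharP.cast_eq_zero_iff F 5 2).1 (by exact_mod_cast h3)
  norm_num at h4

theorem card_dvd (hF : Fintype.card F = 5) {G : Subgroup (MulAut SL3)}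
    (hG : (MulAut.conj : SL3 →* MulAut SL3).range ≤ G) : Nat.card SL3 ∣ Nat.card G := by
  have hfin : Finite (MulAut SL3) := inferInstance
  have h := Nat.card_congr (MonoidHom.ofInjective (conj_injective hF)).toEquiv
  rw [h]
  exact Subgroup.card_dvd_of_le hG

/-- The asymmetric form. -/
theorem aux (hF : Fintype.card F = 5) (G H K : Subgroup (MulAut SL3))
    (hG : (MulAut.conj : SL3 →* MulAut SL3).range ≤ G) (hH : H ≤ G) (hK : K ≤ G)
    (hHK : ∀ g ∈ G, ∃ h ∈ H, ∃ k ∈ K, g = h * k) (hHs : Group.IsSolvable H) (hKs : Group.IsSolvable K)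
    (h31 : 31 ∣ Nat.card H) : False := by
  have hfin : Finite (MulAut SL3) := inferInstance
  have hZ := conj_injective hF
  have hidx := index_le hF
  have hle : ∀ {L : Subgroup (MulAut SL3)}, L ≤ G → (MulAut.conj : SL3 →* MulAut SL3).range.relIndex L ≤ 2 ∧
      0 < (MulAut.conj : SL3 →* MulAut SL3).range.relIndex L := by
    intro L hL
    have h1 : (MulAut.conj : SL3 →* MulAut SL3).range.relIndex L ∣ (MulAut.conj : SL3 →* MulAut SL3).range.index := by
      rw [← Subgroup.relIndex_top_right]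
      exact relIndex_dvd le_top
    have h2 : 0 < (MulAut.conj : SL3 →* MulAut SL3).range.index :=
      Nat.pos_of_ne_zero Subgroup.index_ne_zero_of_finite
    exact ⟨(Nat.le_of_dvd h2 h1).trans hidx, Nat.pos_of_dvd_of_pos h1 h2⟩
  set H₀ := H.comap (MulAut.conj : SL3 →* MulAut SL3) with hH₀
  set K₀ := K.comap (MulAut.conj : SL3 →* MulAut SL3) with hK₀
  have hcH := card_comap_mul hZ H
  have hcK := card_comap_mul hZ K
  have hsH : Group.IsSolvable H₀ := isSolvable_comap _ hZ hHs
  obtain ⟨ha2, ha0⟩ := hle hH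
  obtain ⟨hb2, hb0⟩ := hle hK
  set a := (MulAut.conj : SL3 →* MulAut SL3).range.relIndex H with ha
  set b := (MulAut.conj : SL3 →* MulAut SL3).range.relIndex K with hb
  change Nat.card H₀ * a = Nat.card H at hcH
  change Nat.card K₀ * b = Nat.card K at hcK
  have h31' : 31 ∣ Nat.card H₀ := by
    rw [← hcH] at h31
    rcases (Nat.Prime.dvd_mul (by norm_num)).1 h31 with h | h
    · exact h
    · have := Nat.le_of_dvd ha0 h
      omega
  have hn5 : ¬ 5 ∣ Nat.card H₀ := by
    intro h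
    have h1 := bd hF H₀ hsH h31'
    have h2 := ((Nat.Prime.dvd_iff_one_le_factorization (by norm_num) Nat.card_pos.ne').1 h)
    omega
  have hn2 : ¬ 2 ∣ Nat.card H₀ := fun h => sep hF H₀ hsH h31' h
  have hH93 : Nat.card H₀ ∣ 93 := by
    have h1 : Nat.card H₀ ∣ 4000 * 93 := by
      have h2 := Subgroup.card_subgroup_dvd_card H₀
      rwa [card_SL hF] at h2
    refine Nat.Coprime.dvd_of_dvd_mul_left ?_ h1
    rw [show (4000 : ℕ) = 2 ^ 5 * 5 ^ 3 by norm_num]
    refine Nat.Coprime.mul_right (Nat.Coprime.pow_right _ ?_) (Nat.Coprime.pow_right _ ?_)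
    · exact ((Nat.Prime.coprime_iff_not_dvd (by norm_num)).2 hn2).symm
    · exact ((Nat.Prime.coprime_iff_not_dvd (by norm_num)).2 hn5).symm
  have hHle : Nat.card H₀ ≤ 93 := Nat.le_of_dvd (by norm_num) hH93
  -- the `5`-part of `K`
  have h125 : 125 ∣ Nat.card K₀ := by
    have h1 : 125 ∣ Nat.card H * Nat.card K := by
      rw [card_factor hH hK hHK]
      refine Dvd.dvd.mul_right ?_ _
      have h2 := card_dvd hF hG
      rw [card_SL hF] at h2
      exact (by norm_num : 125 ∣ 372000).trans h2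
    have h5H : Nat.Coprime 125 (Nat.card H) := by
      rw [show (125 : ℕ) = 5 ^ 3 by norm_num]
      refine Nat.Coprime.pow_left _ ((Nat.Prime.coprime_iff_not_dvd (by norm_num)).2 fun h => ?_)
      rw [← hcH] at h
      rcases (Nat.Prime.dvd_mul (by norm_num)).1 h with h | h
      · exact hn5 h
      · have := Nat.le_of_dvd ha0 h
        omega
    have h2 : 125 ∣ Nat.card K := h5H.dvd_of_dvd_mul_left h1
    rw [← hcK] at h2
    refine Nat.Coprime.dvd_of_dvd_mul_right ?_ h2
    rw [show (125 : ℕ) = 5 ^ 3 by norm_num]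
    refine Nat.Coprime.pow_left _ ((Nat.Prime.coprime_iff_not_dvd (by norm_num)).2 fun h => ?_)
    have := Nat.le_of_dvd hb0 h
    omega
  obtain ⟨S, hS⟩ := exists_fixed_sylow hF K hKs h125
  have := Fact.mk (by norm_num : Nat.Prime 5)
  have htrans : ∀ S' : Sylow 5 SL3, ∃ h ∈ H, h • S = S' := by
    intro S'
    obtain ⟨x, hx⟩ := MulAction.exists_smul_eq SL3 S S'
    rw [Sylow.smul_def] at hx
    obtain ⟨h, hh, k, hk, e⟩ := hHK (MulAut.conj x) (hG ⟨x, rfl⟩)
    refine ⟨h, hh, ?_⟩
    rw [e, mul_smul, hS k hk] at hx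
    exact hx
  have hcount : ∀ P : Sylow 5 SL3, Nat.card (MulAction.stabilizer H P) * Nat.card (Sylow 5 SL3) = Nat.card H := by
    intro P
    have h1 := Subgroup.card_mul_index (MulAction.stabilizer H P)
    rw [MulAction.index_stabilizer] at h1
    have h2 : MulAction.orbit H P = Set.univ := by
      refine Set.eq_univ_of_forall fun Q => ?_
      obtain ⟨h, hh, e⟩ := htrans P
      obtain ⟨h', hh', e'⟩ := htrans Q
      refine ⟨⟨h', hh'⟩ * ⟨h, hh⟩⁻¹, ?_⟩
      change (⟨h', hh'⟩ * ⟨h, hh⟩⁻¹ : H) • P = Q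
      rw [mul_smul, inv_smul_eq_iff.2 (show P = (⟨h, hh⟩ : H) • S from e.symm)]
      exact e'
    rw [h2, Set.ncard_univ] at h1
    exact h1
  have hsyl := card_sylow hF
  by_cases h2H : 2 ∣ Nat.card H
  · have := Fact.mk Nat.prime_two
    obtain ⟨t, ht⟩ := exists_prime_orderOf_dvd_card' 2 h2H
    have ht2 : (t : MulAut SL3) * t = 1 := by
      have h1 : t ^ 2 = 1 := by rw [← ht]; exact pow_orderOf_eq_one t
      rw [sq] at h1
      exact congrArg Subtype.val h1
    have htne : (t : MulAut SL3) ≠ 1 := by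
      intro h
      have h1 : t = 1 := Subtype.ext h
      rw [h1, orderOf_one] at ht
      omega
    rcases aut_eq hF (t : MulAut SL3) with ⟨B, hB⟩ | ⟨B, hB⟩
    · apply hn2
      have hBm : B ∈ H₀ := by
        rw [hH₀, Subgroup.mem_comap, ← hB]
        exact t.2
      have h1 : orderOf (⟨B, hBm⟩ : H₀) = 2 := by
        refine orderOf_eq_prime ?_ ?_
        · apply Subtype.ext
          apply hZ
          rw [sq]
          change MulAut.conj (B * B) = MulAut.conj 1
          rw [map_mul, ← hB, ht2, map_one]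
        · intro h
          apply htne
          have h3 : B = 1 := congrArg Subtype.val h
          rw [hB, h3, map_one]
      rw [← h1]
      exact orderOf_dvd_natCard _
    · have h1 : (MulAut.conj B * itr : MulAut SL3) * (MulAut.conj B * itr) = 1 := by rw [← hB, ht2]
      obtain ⟨P, hP⟩ := exists_fixed hF h1
      have h2 := hcount P
      have h3 : 2 ≤ Nat.card (MulAction.stabilizer H P) := by
        have h4 : t ∈ MulAction.stabilizer H P := by
          rw [MulAction.mem_stabilizer_iff]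
          change (t : MulAut SL3) • P = P
          rw [hB]
          exact hP
        have h5 : orderOf (⟨t, h4⟩ : MulAction.stabilizer H P) = 2 := by rw [Subgroup.orderOf_mk, ht]
        rw [← h5]
        exact Nat.le_of_dvd Nat.card_pos (orderOf_dvd_natCard _)
      have h4 : Nat.card H ≤ 93 * 2 := by
        rw [← hcH]
        exact Nat.mul_le_mul hHle ha2
      have h5 : 2 * 186 ≤ Nat.card (MulAction.stabilizer H P) * Nat.card (Sylow 5 SL3) := Nat.mul_le_mul h3 hsyl
      omega
  · have ha1 : a = 1 := by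
      rcases Nat.lt_or_ge a 2 with h | h
      · omega
      · exfalso
        apply h2H
        rw [← hcH, show a = 2 by omega]
        exact dvd_mul_left _ _
    rw [ha1, mul_one] at hcH
    have h2 := hcount S
    have h3 : 0 < Nat.card (MulAction.stabilizer H S) := Nat.card_pos
    have h4 : 1 * 186 ≤ Nat.card (MulAction.stabilizer H S) * Nat.card (Sylow 5 SL3) := Nat.mul_le_mul h3 hsyl
    omega

/-- **No almost simple group with socle `SL_3(5)` is a product of two solvable groups.** -/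
theorem nf_SL (hF : Fintype.card F = 5) : NF SL3 := by
  intro G H K hG hH hK hHK hHs hKs
  have h1 : 31 ∣ Nat.card H * Nat.card K := by
    rw [card_factor hH hK hHK]
    refine Dvd.dvd.mul_right ?_ _
    have h2 := card_dvd hF hG
    rw [card_SL hF] at h2
    exact (by norm_num : 31 ∣ 372000).trans h2
  rcases (Nat.Prime.dvd_mul (by norm_num)).1 h1 with h | h
  · exact aux hF G H K hG hH hK hHK hHs hKs h
  · refine aux hF G K H hG hK hH (fun g hg => ?_) hKs hHs h
    obtain ⟨x, hx, k, hk, e⟩ := hHK g⁻¹ (G.inv_mem hg)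
    refine ⟨k⁻¹, K.inv_mem hk, x⁻¹, H.inv_mem hx, ?_⟩
    rw [← _root_.mul_inv_rev, ← e, inv_inv]

/-- **The row `PSL_3(5)`.** -/
theorem psl3_five (F : Type) [Field F] [Fintype F] (hF : Fintype.card F = 5) :
    NF (Matrix.ProjectiveSpecialLinearGroup (Fin 3) F) := by
  have hb : Function.Bijective (pr : Matrix.SpecialLinearGroup (Fin 3) F → _) :=
    ⟨pr_injective hF, pr_surjective⟩
  exact (nf_SL hF).congr (MulEquiv.ofBijective (QuotientGroup.mk' _) hb)

end Cfsg.Agent.H176.NFFive
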